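import Mathlib
import Cfsg.Statements.S1500

/-! Basic facts on the Dade hypothesis: the sections `a H(a)` and the counting formula. -/

set_option autoImplicit false

namespace CfsgLib.Dade

universe u

variable {G : Type u} [Group G] {A : Set G} {L : Subgroup G} {H : G → Subgroup G}

theorem commute_of_mem (hD : Cfsg.DadeHypothesis A L H) {a : G} (ha : a ∈ A) {u : G} (hu : u ∈ H a) :
    Commute a u :=
  (Subgroup.mem_centralizer_singleton_iff.1 (hD.le_centralizer a ha hu)).symm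

variable [Finite G]

theorem orderOf_coprime (hD : Cfsg.DadeHypothesis A L H) {a b : G} (ha : a ∈ A) (hb : b ∈ A) :
    (orderOf a).Coprime (Nat.card (H b)) := by
  have hmem : a ∈ L ⊓ Subgroup.centralizer ({a} : Set G) :=
    ⟨hD.subset ha, Subgroup.mem_centralizer_singleton_iff.2 rfl⟩
  exact Nat.Coprime.coprime_dvd_left (Subgroup.orderOf_mk a hmem ▸ orderOf_dvd_natCard _)
    (hD.coprime b hb a ha).symm

theorem conj_eq (hD : Cfsg.DadeHypothesis A L H) {a b u v x : G} (ha : a ∈ A) (hb : b ∈ A)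
    (hu : u ∈ H a) (hv : v ∈ H b) (h : x * (a * u) * x⁻¹ = b * v) :
    x * a * x⁻¹ = b ∧ x * u * x⁻¹ = v := by
  set r := orderOf a * orderOf b with hr
  set s := Nat.card (H a) * Nat.card (H b) with hs
  have hcop : r.Coprime s := Nat.Coprime.mul_left
    (Nat.Coprime.mul_right (orderOf_coprime hD ha ha) (orderOf_coprime hD ha hb))
    (Nat.Coprime.mul_right (orderOf_coprime hD hb ha) (orderOf_coprime hD hb hb))
  obtain ⟨k, hk1, hk0⟩ := Nat.chineseRemainder hcop 1 0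
  have key : ∀ (c w : G), c ∈ A → w ∈ H c → orderOf c ∣ r → Nat.card (H c) ∣ s →
      (c * w) ^ k = c := by
    intro c w hc hw hcr hcs
    have h1 : c ^ k = c := by
      conv_rhs => rw [← pow_one c]
      exact pow_eq_pow_iff_modEq.2 (hk1.of_dvd hcr)
    have h2 : w ^ k = 1 := orderOf_dvd_iff_pow_eq_one.1
      ((Subgroup.orderOf_mk w hw ▸ orderOf_dvd_natCard _).trans (hcs.trans (Nat.modEq_zero_iff_dvd.1 hk0)))
    rw [(commute_of_mem hD hc hw).mul_pow, h1, h2, mul_one]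
  have h3 := congrArg (· ^ k) h
  simp only [conj_pow] at h3
  rw [key a u ha hu (dvd_mul_right _ _) (dvd_mul_right _ _),
    key b v hb hv (dvd_mul_left _ _) (dvd_mul_left _ _)] at h3
  refine ⟨h3, mul_left_cancel (a := b) ?_⟩
  rw [← h]
  nth_rewrite 1 [← h3]
  group

theorem exists_conj (hD : Cfsg.DadeHypothesis A L H) {a b u v x : G} (ha : a ∈ A) (hb : b ∈ A)
    (hu : u ∈ H a) (hv : v ∈ H b) (h : x * (a * u) * x⁻¹ = b * v) :
    ∃ l ∈ L, l * a * l⁻¹ = b := by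
  obtain ⟨hab, -⟩ := conj_eq hD ha hb hu hv h
  obtain ⟨l, hl, hla⟩ := hD.fusion a ha x (by rw [hab]; exact hb)
  exact ⟨l, hl, hla.trans hab⟩

theorem exists_decomp (hD : Cfsg.DadeHypothesis A L H) {a : G} (ha : a ∈ A) {c : G}
    (hc : c ∈ Subgroup.centralizer ({a} : Set G)) :
    ∃ w ∈ H a, ∃ l ∈ L ⊓ Subgroup.centralizer ({a} : Set G), c = w * l := by
  have hn : L ⊓ Subgroup.centralizer ({a} : Set G) ≤ Subgroup.normalizer (H a : Set G) := by
    intro c hc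
    rw [Subgroup.mem_normalizer_iff]
    refine fun h => ⟨fun hh => hD.conj_mem_H a ha c hc.2 h hh, fun hh => ?_⟩
    have := hD.conj_mem_H a ha c⁻¹ (Subgroup.inv_mem _ hc.2) _ hh
    rwa [inv_inv, show c⁻¹ * (c * h * c⁻¹) * c = h by group] at this
  rw [← hD.sup_eq a ha, ← SetLike.mem_coe,
    Subgroup.coe_mul_of_right_le_normalizer_left _ _ hn] at hc
  obtain ⟨w, hw, l, hl, rfl⟩ := hc
  exact ⟨w, hw, l, hl, rfl⟩

theorem index_eq (hD : Cfsg.DadeHypothesis A L H) {a : G} (ha : a ∈ A) :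
    ((H a).subgroupOf (Subgroup.centralizer ({a} : Set G))).index =
      Nat.card ↥(L ⊓ Subgroup.centralizer ({a} : Set G)) := by
  set C := Subgroup.centralizer ({a} : Set G)
  have h : Subgroup.IsComplement' ((H a).subgroupOf C) ((L ⊓ C).subgroupOf C) := by
    refine Subgroup.isComplement'_of_disjoint_and_mul_eq_univ ?_ ?_
    · rw [disjoint_iff, eq_bot_iff]
      rintro ⟨g, hg⟩ ⟨h1, h2⟩
      have : g ∈ H a ⊓ (L ⊓ C) := ⟨h1, h2⟩
      rw [hD.inf_eq_bot a ha, Subgroup.mem_bot] at this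
      exact Subgroup.mem_bot.2 (Subtype.ext this)
    · refine Set.eq_univ_of_forall fun c => ?_
      obtain ⟨w, hw, l, hl, he⟩ := exists_decomp hD ha c.2
      exact ⟨⟨w, hD.le_centralizer a ha hw⟩, hw, ⟨l, hl.2⟩, hl, Subtype.ext he.symm⟩
  rw [h.symm.index_eq_card, Nat.card_congr (Subgroup.subgroupOfEquivOfLe inf_le_right).toEquiv]

theorem conj_mem_of_mem (hD : Cfsg.DadeHypothesis A L H) {a l u : G} (ha : a ∈ A) (hl : l ∈ L)
    (hu : u ∈ H a) : l * u * l⁻¹ ∈ H (l * a * l⁻¹) := by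
  have hb := hD.conj_mem l hl a ha
  set b := l * a * l⁻¹ with hbdef
  set C := Subgroup.centralizer ({b} : Set G)
  have hc : l * u * l⁻¹ ∈ C := Subgroup.mem_centralizer_singleton_iff.2 (by
    rw [hbdef, show l * u * l⁻¹ * (l * a * l⁻¹) = l * (u * a) * l⁻¹ by group,
      ← (commute_of_mem hD ha hu).eq]
    group)
  haveI : ((H b).subgroupOf C).Normal :=
    ⟨fun x hx c => hD.conj_mem_H b hb c c.2 x hx⟩
  refine (QuotientGroup.eq_one_iff (N := (H b).subgroupOf C) (⟨_, hc⟩ : C)).1 ?_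
  rw [← orderOf_eq_one_iff]
  refine Nat.eq_one_of_dvd_coprimes (hD.coprime a ha b hb) ?_ ?_
  · refine (orderOf_map_dvd (QuotientGroup.mk' _) _).trans ?_
    rw [Subgroup.orderOf_mk,
      show l * u * l⁻¹ = MulAut.conj l u from rfl, MulEquiv.orderOf_eq, ← Subgroup.orderOf_mk u hu]
    exact orderOf_dvd_natCard _
  · rw [← index_eq hD hb]
    exact orderOf_dvd_natCard _

theorem card_H_conj (hD : Cfsg.DadeHypothesis A L H) {a l : G} (ha : a ∈ A) (hl : l ∈ L) :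
    Nat.card (H (l * a * l⁻¹)) = Nat.card (H a) := by
  refine le_antisymm (Nat.card_le_card_of_injective (fun u => (⟨l⁻¹ * u.1 * l, ?_⟩ : H a)) ?_)
    (Nat.card_le_card_of_injective
      (fun u => (⟨l * u.1 * l⁻¹, conj_mem_of_mem hD ha hl u.2⟩ : H (l * a * l⁻¹))) ?_)
  · have := conj_mem_of_mem hD (hD.conj_mem l hl a ha) (L.inv_mem hl) u.2
    rwa [inv_inv, show l⁻¹ * (l * a * l⁻¹) * l = a by group] at this
  · exact fun u v h => Subtype.ext (mul_left_cancel (mul_right_cancel (congrArg Subtype.val h :)))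
  · exact fun u v h => Subtype.ext (mul_left_cancel (mul_right_cancel (congrArg Subtype.val h :)))

/-- The union of the conjugates of the sections `a H(a)`. -/
def support (A : Set G) (H : G → Subgroup G) : Set G :=
  {g | ∃ a ∈ A, ∃ u ∈ H a, ∃ x : G, x * g * x⁻¹ = a * u}

theorem iso_apply (hD : Cfsg.DadeHypothesis A L H) {α : L → ℂ} (hα : Cfsg.IsClassFunction L α)
    (a : L) (ha : (a : G) ∈ A) {u : G} (hu : u ∈ H (a : G)) {g x : G}
    (hg : x * g * x⁻¹ = (a : G) * u) : Cfsg.dadeIsometry A L H α g = α a := by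
  have h : ∃ a : L, (a : G) ∈ A ∧ ∃ x : G, ∃ u ∈ H (a : G), x * g * x⁻¹ = (a : G) * u :=
    ⟨a, ha, x, u, hu, hg⟩
  rw [Cfsg.dadeIsometry, dif_pos h]
  obtain ⟨hb, y, v, hv, hgy⟩ := Classical.choose_spec h
  obtain ⟨l, hl, hla⟩ := exists_conj hD (x := y * x⁻¹) ha hb hu hv (by rw [← hg, ← hgy]; group)
  rw [show Classical.choose h = ⟨l, hl⟩ * a * ⟨l, hl⟩⁻¹ from Subtype.ext hla.symm]
  exact hα a ⟨l, hl⟩

theorem iso_eq_zero {α : L → ℂ} {g : G} (hD : Cfsg.DadeHypothesis A L H)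
    (hg : g ∉ support A H) : Cfsg.dadeIsometry A L H α g = 0 := by
  rw [Cfsg.dadeIsometry, dif_neg]
  rintro ⟨a, ha, x, u, hu, h⟩
  exact hg ⟨a, ha, u, hu, x, h⟩

open Classical in
/-- Summing a class function vanishing outside the union of the sections. -/
theorem sum_formula [Fintype G] [Fintype L] {K : Type*} [Field K] [CharZero K]
    (hD : Cfsg.DadeHypothesis A L H) {F : G → K} (hF : ∀ g x, F (x * g * x⁻¹) = F g)
    (hF0 : ∀ g, g ∉ support A H → F g = 0) :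
    (Nat.card L : K) * ∑ g, F g = (Nat.card G : K) *
      ∑ a ∈ Finset.univ.filter (fun a : L => (a : G) ∈ A),
        (Nat.card (H (a : G)) : K)⁻¹ * ∑ u ∈ Finset.univ.filter (fun u => u ∈ H (a : G)), F ((a : G) * u) := by
  set S := Finset.univ.filter (fun a : L => (a : G) ∈ A)
  let U : L → Finset G := fun a => Finset.univ.filter (fun u => u ∈ H (a : G))
  let T : Finset ((_ : G) × ((_ : L) × G)) := Finset.univ.sigma fun _ => S.sigma U
  let Φ : ((_ : G) × ((_ : L) × G)) → G := fun t => t.1⁻¹ * ((t.2.1 : G) * t.2.2) * t.1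
  have hΦ : ∀ t, F (Φ t) = F ((t.2.1 : G) * t.2.2) := fun t => by
    have := hF ((t.2.1 : G) * t.2.2) t.1⁻¹
    rwa [inv_inv] at this
  have hR : (Nat.card G : K) * ∑ a ∈ S, (Nat.card (H (a : G)) : K)⁻¹ * ∑ u ∈ U a, F ((a : G) * u)
      = ∑ t ∈ T, (Nat.card (H (t.2.1 : G)) : K)⁻¹ * F (Φ t) := by
    simp only [hΦ, T, Finset.sum_sigma]
    rw [Finset.sum_const, Finset.card_univ, nsmul_eq_mul, Nat.card_eq_fintype_card]
    simp only [Finset.mul_sum]
  rw [hR, Finset.mul_sum, ← Finset.sum_fiberwise T Φ]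
  refine Finset.sum_congr rfl fun g _ => ?_
  by_cases hg : g ∈ support A H
  swap
  · rw [hF0 g hg, mul_zero, Finset.sum_eq_zero fun t ht => ?_]
    rw [(Finset.mem_filter.1 ht).2, hF0 g hg, mul_zero]
  obtain ⟨a₀, ha₀, u₀, hu₀, x₀, hg⟩ := hg
  have hmem : ∀ t, t ∈ T.filter (fun t => Φ t = g) → ((t.2.1 : G) ∈ A ∧ t.2.2 ∈ H (t.2.1 : G)) ∧
      ((t.1 * x₀⁻¹) * a₀ * (t.1 * x₀⁻¹)⁻¹ = (t.2.1 : G) ∧
        (t.1 * x₀⁻¹) * u₀ * (t.1 * x₀⁻¹)⁻¹ = t.2.2) := by
    rintro ⟨x, a, u⟩ ht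
    obtain ⟨hT, hgt⟩ := Finset.mem_filter.1 ht
    simp only [T, S, U, Finset.mem_sigma, Finset.mem_univ, Finset.mem_filter, true_and] at hT
    refine ⟨hT, conj_eq hD ha₀ hT.1 hu₀ hT.2 ?_⟩
    rw [← hg, ← hgt]
    simp only [Φ]
    group
  have hy : ∀ y a : G, a ∈ A → y * a₀ * y⁻¹ = a → ∃ l ∈ L, ∃ w ∈ H a₀, y = l * w ∧ l * a₀ * l⁻¹ = a := by
    intro y a ha hya
    obtain ⟨l, hl, hla⟩ := hD.fusion a₀ ha₀ y (hya ▸ ha)
    have hc : l⁻¹ * y ∈ Subgroup.centralizer ({a₀} : Set G) := by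
      rw [Subgroup.mem_centralizer_singleton_iff]
      calc l⁻¹ * y * a₀ = l⁻¹ * (y * a₀ * y⁻¹) * y := by group
        _ = l⁻¹ * (l * a₀ * l⁻¹) * y := by rw [hla]
        _ = a₀ * (l⁻¹ * y) := by group
    obtain ⟨w, hw, m, hm, he⟩ := exists_decomp hD ha₀ hc
    refine ⟨l * m, L.mul_mem hl hm.1, m⁻¹ * w * m, ?_, ?_, ?_⟩
    · have := hD.conj_mem_H a₀ ha₀ m⁻¹ (Subgroup.inv_mem _ hm.2) w hw
      rwa [inv_inv] at this
    · calc y = l * (l⁻¹ * y) := by group
        _ = l * (w * m) := by rw [he]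
        _ = _ := by group
    · rw [show l * m * a₀ * (l * m)⁻¹ = l * (m * a₀ * m⁻¹) * l⁻¹ by group,
        Subgroup.mem_centralizer_singleton_iff.1 hm.2, mul_inv_cancel_right, hla, hya]
  have hw : ∀ t ∈ T.filter (fun t => Φ t = g),
      (Nat.card (H (t.2.1 : G)) : K)⁻¹ * F (Φ t) = (Nat.card (H a₀) : K)⁻¹ * F g := by
    intro t ht
    obtain ⟨⟨hA, -⟩, hya, -⟩ := hmem t ht
    obtain ⟨l, hl, -, -, -, hla⟩ := hy _ _ hA hya
    rw [(Finset.mem_filter.1 ht).2, ← hla, card_H_conj hD ha₀ hl]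
  rw [Finset.sum_congr rfl hw, Finset.sum_const, nsmul_eq_mul]
  have hcard : (T.filter fun t => Φ t = g).card = Nat.card L * Nat.card (H a₀) := by
    have e : Nat.card L * Nat.card (H a₀) =
        ((Finset.univ : Finset L) ×ˢ Finset.univ.filter (fun w => w ∈ H a₀)).card := by
      rw [Finset.card_product, Finset.card_univ, Nat.card_eq_fintype_card, Nat.card_eq_fintype_card]
      congr 1
      exact Fintype.card_subtype _
    rw [e]
    symm
    refine Finset.card_bij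
      (fun p _ => ⟨(p.1 : G) * p.2 * x₀,
        ⟨p.1 * ⟨a₀, hD.subset ha₀⟩ * p.1⁻¹, ((p.1 : G) * p.2) * u₀ * ((p.1 : G) * p.2)⁻¹⟩⟩)
      ?_ ?_ ?_
    · rintro ⟨l, w⟩ hp
      simp only [Finset.mem_product, Finset.mem_univ, Finset.mem_filter, true_and] at hp
      simp only [T, S, U, Finset.mem_filter, Finset.mem_sigma, Finset.mem_univ, true_and]
      refine ⟨⟨hD.conj_mem l l.2 a₀ ha₀, ?_⟩, ?_⟩
      · rw [show (l : G) * w * u₀ * ((l : G) * w)⁻¹ = l * (w * u₀ * w⁻¹) * (l : G)⁻¹ by group]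
        exact conj_mem_of_mem hD ha₀ l.2 (mul_mem (mul_mem hp hu₀) (inv_mem hp))
      · show ((l : G) * w * x₀)⁻¹ * ((l : G) * a₀ * (l : G)⁻¹ * ((l : G) * w * u₀ * ((l : G) * w)⁻¹))
          * ((l : G) * w * x₀) = g
        calc _ = x₀⁻¹ * ((w⁻¹ * a₀ * w) * u₀) * x₀ := by group
          _ = x₀⁻¹ * (a₀ * u₀) * x₀ := by
            rw [show w⁻¹ * a₀ * w = a₀ by
              rw [mul_assoc, (commute_of_mem hD ha₀ hp).eq, inv_mul_cancel_left]]
          _ = g := by rw [← hg]; group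
    · rintro ⟨l, w⟩ hp ⟨l', w'⟩ hp' he
      simp only [Finset.mem_product, Finset.mem_univ, Finset.mem_filter, true_and] at hp hp'
      have h1 : (l : G) * w = l' * w' := mul_right_cancel (congrArg Sigma.fst he)
      have hd : w' * w⁻¹ ∈ H a₀ ⊓ (L ⊓ Subgroup.centralizer ({a₀} : Set G)) := by
        have hmemH := mul_mem hp' (inv_mem hp)
        refine ⟨hmemH, ?_, hD.le_centralizer a₀ ha₀ hmemH⟩
        have : w' * w⁻¹ = (l' : G)⁻¹ * l := by
          calc w' * w⁻¹ = (l' : G)⁻¹ * ((l' : G) * w') * w⁻¹ := by group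
            _ = (l' : G)⁻¹ * ((l : G) * w) * w⁻¹ := by rw [h1]
            _ = _ := by group
        rw [this]
        exact L.mul_mem (L.inv_mem l'.2) l.2
      rw [hD.inf_eq_bot a₀ ha₀, Subgroup.mem_bot, mul_inv_eq_one] at hd
      subst hd
      exact Prod.ext (Subtype.ext (mul_right_cancel h1)) rfl
    · rintro ⟨x, a, u⟩ ht
      obtain ⟨⟨hA, -⟩, hya, hyu⟩ := hmem _ ht
      obtain ⟨l, hl, w, hw, hxlw, hla⟩ := hy _ _ hA hya
      refine ⟨(⟨l, hl⟩, w), by simp [hw], ?_⟩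
      have hx : x = l * w * x₀ := by rw [← hxlw]; group
      have ha : a = ⟨l, hl⟩ * ⟨a₀, hD.subset ha₀⟩ * ⟨l, hl⟩⁻¹ := Subtype.ext hla.symm
      have hu : u = l * w * u₀ * (l * w)⁻¹ := by
        rw [← hxlw]
        exact hyu.symm
      subst hx ha hu
      rfl
  rw [hcard]
  have hne : (Nat.card (H a₀) : K) ≠ 0 := Nat.cast_ne_zero.2 Nat.card_pos.ne'
  push_cast
  field_simp

end CfsgLib.Dade
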